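import Mathlib
import Cfsg.Prelude.Def_OddOrderLocal
import Cfsg.Agent.Lib.Helper23.Compl

/-!
Abstract facts about `Ẑ = K K* − (K ∪ K*)` for two elementwise commuting subgroups of coprime
orders such that `C_G(x y) = K K*` for all non-identity `x ∈ K`, `y ∈ K*`.
-/

set_option autoImplicit false

namespace Cfsg.Agent.Lib.Helper20.BG

open Cfsg

variable {G : Type*} [Group G]

/-- `Ẑ = K K* − (K ∪ K*)`. -/
def zHat (K Ks : Subgroup G) : Set G := (↑(K ⊔ Ks) : Set G) \ ((K : Set G) ∪ ↑Ks)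

theorem zHat_decomp {K Ks : Subgroup G} (hcomm : ∀ a ∈ K, ∀ b ∈ Ks, a * b = b * a) {z : G}
    (hz : z ∈ zHat K Ks) : ∃ x ∈ K, x ≠ 1 ∧ ∃ y ∈ Ks, y ≠ 1 ∧ z = x * y := by
  obtain ⟨hzZ, hznot⟩ := hz
  obtain ⟨x, hx, y, hy, rfl⟩ := Cfsg.Agent.Lib.Helper23.mem_sup_of_commute K Ks hcomm hzZ
  refine ⟨x, hx, ?_, y, hy, ?_, rfl⟩
  · rintro rfl
    apply hznot
    right
    rw [one_mul]
    exact hy
  · rintro rfl
    apply hznot
    left
    rw [mul_one]
    exact hx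

theorem inf_eq_bot_of_coprime [Finite G] {K Ks : Subgroup G}
    (hcop : (Nat.card K).Coprime (Nat.card Ks)) {w : G} (h1 : w ∈ K) (h2 : w ∈ Ks) : w = 1 := by
  have d1 : orderOf w ∣ Nat.card K := by
    have := orderOf_dvd_natCard (⟨w, h1⟩ : K)
    rwa [Subgroup.orderOf_mk] at this
  have d2 : orderOf w ∣ Nat.card Ks := by
    have := orderOf_dvd_natCard (⟨w, h2⟩ : Ks)
    rwa [Subgroup.orderOf_mk] at this
  have : orderOf w = 1 := Nat.eq_one_of_dvd_coprimes hcop d1 d2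
  exact orderOf_eq_one_iff.mp this

theorem mul_mem_zHat [Finite G] {K Ks : Subgroup G}
    (hcop : (Nat.card K).Coprime (Nat.card Ks)) {x y : G} (hx : x ∈ K) (hx1 : x ≠ 1) (hy : y ∈ Ks)
    (hy1 : y ≠ 1) : x * y ∈ zHat K Ks := by
  refine ⟨Subgroup.mul_mem _ (Subgroup.mem_sup_left hx) (Subgroup.mem_sup_right hy), ?_⟩
  rintro (h | h)
  · have hyK : y ∈ K := by
      have := K.mul_mem (K.inv_mem hx) h
      rwa [inv_mul_cancel_left] at this
    exact hy1 (inf_eq_bot_of_coprime hcop hyK hy)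
  · have hxK : x ∈ Ks := by
      have := Ks.mul_mem h (Ks.inv_mem hy)
      rwa [mul_inv_cancel_right] at this
    exact hx1 (inf_eq_bot_of_coprime hcop hx hxK)

/-- Inside `K K*`, the elements of `K` are those killed by `#K`. -/
theorem mem_left_of_pow [Finite G] {K Ks : Subgroup G}
    (hcomm : ∀ a ∈ K, ∀ b ∈ Ks, a * b = b * a) (hcop : (Nat.card K).Coprime (Nat.card Ks))
    {w : G} (hw : w ∈ K ⊔ Ks) (hpow : w ^ Nat.card K = 1) : w ∈ K := by
  obtain ⟨x, hx, y, hy, rfl⟩ := Cfsg.Agent.Lib.Helper23.mem_sup_of_commute K Ks hcomm hw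
  have hxy : Commute x y := hcomm x hx y hy
  rw [hxy.mul_pow] at hpow
  have hxpow : x ^ Nat.card K = 1 := by
    have := pow_card_eq_one' (G := K) (x := ⟨x, hx⟩)
    exact congrArg Subtype.val this
  rw [hxpow, one_mul] at hpow
  have d1 : orderOf y ∣ Nat.card K := orderOf_dvd_of_pow_eq_one hpow
  have d2 : orderOf y ∣ Nat.card Ks := by
    have := orderOf_dvd_natCard (⟨y, hy⟩ : Ks)
    rwa [Subgroup.orderOf_mk] at this
  have : orderOf y = 1 := Nat.eq_one_of_dvd_coprimes hcop d1 d2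
  rw [orderOf_eq_one_iff.mp this, mul_one]
  exact hx

theorem mem_right_of_pow [Finite G] {K Ks : Subgroup G}
    (hcomm : ∀ a ∈ K, ∀ b ∈ Ks, a * b = b * a) (hcop : (Nat.card K).Coprime (Nat.card Ks))
    {w : G} (hw : w ∈ K ⊔ Ks) (hpow : w ^ Nat.card Ks = 1) : w ∈ Ks := by
  obtain ⟨x, hx, y, hy, rfl⟩ := Cfsg.Agent.Lib.Helper23.mem_sup_of_commute K Ks hcomm hw
  have hxy : Commute x y := hcomm x hx y hy
  rw [hxy.mul_pow] at hpow
  have hypow : y ^ Nat.card Ks = 1 := by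
    have := pow_card_eq_one' (G := Ks) (x := ⟨y, hy⟩)
    exact congrArg Subtype.val this
  rw [hypow, mul_one] at hpow
  have d1 : orderOf x ∣ Nat.card Ks := orderOf_dvd_of_pow_eq_one hpow
  have d2 : orderOf x ∣ Nat.card K := by
    have := orderOf_dvd_natCard (⟨x, hx⟩ : K)
    rwa [Subgroup.orderOf_mk] at this
  have : orderOf x = 1 := Nat.eq_one_of_dvd_coprimes hcop d2 d1
  rw [orderOf_eq_one_iff.mp this, one_mul]
  exact hy

/-- An element conjugating one element of `Ẑ` into `Ẑ` normalizes `Z = K K*` (both ways). -/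
theorem conj_sup_of_zHat {K Ks : Subgroup G} (hcomm : ∀ a ∈ K, ∀ b ∈ Ks, a * b = b * a)
    (hcent : ∀ x ∈ K, x ≠ 1 → ∀ y ∈ Ks, y ≠ 1 →
      Subgroup.centralizer ({x * y} : Set G) = K ⊔ Ks)
    {z g : G} (hz : z ∈ zHat K Ks) (hgz : g * z * g⁻¹ ∈ zHat K Ks) :
    (∀ w ∈ K ⊔ Ks, g * w * g⁻¹ ∈ K ⊔ Ks) ∧ ∀ w ∈ K ⊔ Ks, g⁻¹ * w * g ∈ K ⊔ Ks := by
  obtain ⟨x, hx, hx1, y, hy, hy1, rfl⟩ := zHat_decomp hcomm hz
  obtain ⟨x', hx', hx'1, y', hy', hy'1, hz'⟩ := zHat_decomp hcomm hgz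
  have hC := hcent x hx hx1 y hy hy1
  have hC' := hcent x' hx' hx'1 y' hy' hy'1
  constructor
  · intro w hw
    rw [← hC, Subgroup.mem_centralizer_iff] at hw
    have hw' := hw (x * y) rfl
    rw [← hC', ← hz', Subgroup.mem_centralizer_iff]
    rintro _ rfl
    calc g * (x * y) * g⁻¹ * (g * w * g⁻¹) = g * ((x * y) * w) * g⁻¹ := by group
      _ = g * (w * (x * y)) * g⁻¹ := by rw [hw']
      _ = g * w * g⁻¹ * (g * (x * y) * g⁻¹) := by group
  · intro w hw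
    rw [← hC', ← hz', Subgroup.mem_centralizer_iff] at hw
    have hw' := hw (g * (x * y) * g⁻¹) rfl
    rw [← hC, Subgroup.mem_centralizer_iff]
    rintro _ rfl
    calc x * y * (g⁻¹ * w * g) = g⁻¹ * ((g * (x * y) * g⁻¹) * w) * g := by group
      _ = g⁻¹ * (w * (g * (x * y) * g⁻¹)) * g := by rw [hw']
      _ = g⁻¹ * w * g * (x * y) := by group

/-- An element normalizing `Z = K K*` (both ways) normalizes `K`, `K*` and `Ẑ`. -/
theorem normalizes_of_conj_sup [Finite G] {K Ks : Subgroup G}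
    (hcomm : ∀ a ∈ K, ∀ b ∈ Ks, a * b = b * a) (hcop : (Nat.card K).Coprime (Nat.card Ks))
    {g : G} (h1 : ∀ w ∈ K ⊔ Ks, g * w * g⁻¹ ∈ K ⊔ Ks) (h2 : ∀ w ∈ K ⊔ Ks, g⁻¹ * w * g ∈ K ⊔ Ks) :
    g ∈ Subgroup.normalizer (K : Set G) ∧ g ∈ Subgroup.normalizer (zHat K Ks) := by
  have hpowK : ∀ w ∈ K, w ^ Nat.card K = 1 := by
    intro w hw
    have := pow_card_eq_one' (G := K) (x := ⟨w, hw⟩)
    exact congrArg Subtype.val this
  have hpowKs : ∀ w ∈ Ks, w ^ Nat.card Ks = 1 := by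
    intro w hw
    have := pow_card_eq_one' (G := Ks) (x := ⟨w, hw⟩)
    exact congrArg Subtype.val this
  have kK : ∀ w ∈ K, g * w * g⁻¹ ∈ K := by
    intro w hw
    apply mem_left_of_pow hcomm hcop (h1 w (Subgroup.mem_sup_left hw))
    rw [conj_pow, hpowK w hw, mul_one, mul_inv_cancel]
  have kK' : ∀ w ∈ K, g⁻¹ * w * g ∈ K := by
    intro w hw
    apply mem_left_of_pow hcomm hcop (h2 w (Subgroup.mem_sup_left hw))
    have e : g⁻¹ * w * g = g⁻¹ * w * g⁻¹⁻¹ := by rw [inv_inv]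
    rw [e, conj_pow, hpowK w hw, mul_one, mul_inv_cancel]
  have kKs : ∀ w ∈ Ks, g * w * g⁻¹ ∈ Ks := by
    intro w hw
    apply mem_right_of_pow hcomm hcop (h1 w (Subgroup.mem_sup_right hw))
    rw [conj_pow, hpowKs w hw, mul_one, mul_inv_cancel]
  have kKs' : ∀ w ∈ Ks, g⁻¹ * w * g ∈ Ks := by
    intro w hw
    apply mem_right_of_pow hcomm hcop (h2 w (Subgroup.mem_sup_right hw))
    have e : g⁻¹ * w * g = g⁻¹ * w * g⁻¹⁻¹ := by rw [inv_inv]
    rw [e, conj_pow, hpowKs w hw, mul_one, mul_inv_cancel]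
  have back : ∀ w : G, g⁻¹ * (g * w * g⁻¹) * g = w := by intro w; group
  constructor
  · rw [Subgroup.mem_set_normalizer_iff]
    intro w
    constructor
    · exact kK w
    · intro h
      have := kK' _ h
      rwa [back] at this
  · rw [Subgroup.mem_set_normalizer_iff]
    intro w
    constructor
    · rintro ⟨hwZ, hwnot⟩
      refine ⟨h1 w hwZ, ?_⟩
      rintro (h | h)
      · apply hwnot
        left
        have := kK' _ h
        rwa [back] at this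
      · apply hwnot
        right
        have := kKs' _ h
        rwa [back] at this
    · rintro ⟨hwZ, hwnot⟩
      refine ⟨?_, ?_⟩
      · have := h2 _ hwZ
        rwa [back] at this
      · rintro (h | h)
        · exact hwnot (Or.inl (kK w h))
        · exact hwnot (Or.inr (kKs w h))

/-- `Ẑ` is a TI-subset. -/
theorem zHat_isTISubset [Finite G] {K Ks : Subgroup G}
    (hcomm : ∀ a ∈ K, ∀ b ∈ Ks, a * b = b * a) (hcop : (Nat.card K).Coprime (Nat.card Ks))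
    (hcent : ∀ x ∈ K, x ≠ 1 → ∀ y ∈ Ks, y ≠ 1 →
      Subgroup.centralizer ({x * y} : Set G) = K ⊔ Ks) :
    IsTISubset (zHat K Ks) := by
  intro g hg z hz hgz
  exfalso
  apply hg
  obtain ⟨h1, h2⟩ := conj_sup_of_zHat hcomm hcent hz hgz
  exact (normalizes_of_conj_sup hcomm hcop h1 h2).2

/-- `K K*` is abelian when `K` is. -/
theorem sup_comm_of_cent {K Ks : Subgroup G} (hK : ∀ a ∈ K, ∀ b ∈ K, a * b = b * a)
    (hcomm : ∀ a ∈ K, ∀ b ∈ Ks, a * b = b * a) (hK1 : K ≠ ⊥)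
    (hcent : ∀ x ∈ K, x ≠ 1 → ∀ y ∈ Ks, y ≠ 1 →
      Subgroup.centralizer ({x * y} : Set G) = K ⊔ Ks) :
    ∀ a ∈ K ⊔ Ks, ∀ b ∈ K ⊔ Ks, a * b = b * a := by
  obtain ⟨x, hx1⟩ := (Subgroup.ne_bot_iff_exists_ne_one.mp hK1)
  have hx' : (x : G) ≠ 1 := fun h => hx1 (Subtype.ext h)
  have hKs : ∀ a ∈ Ks, ∀ b ∈ Ks, a * b = b * a := by
    intro a ha b hb
    by_cases hb1 : b = 1
    · rw [hb1, mul_one, one_mul]
    · have hC := hcent x x.2 hx' b hb hb1
      have haC : a ∈ Subgroup.centralizer ({(x : G) * b} : Set G) := by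
        rw [hC]; exact Subgroup.mem_sup_right ha
      rw [Subgroup.mem_centralizer_iff] at haC
      have h1 := haC _ rfl
      have h2 := hcomm x x.2 a ha
      -- `x * b * a = a * (x * b)` and `x a = a x` give `b a = a b`
      have h3 : (x : G) * (b * a) = (x : G) * (a * b) := by
        calc (x : G) * (b * a) = (x : G) * b * a := by group
          _ = a * ((x : G) * b) := h1
          _ = (a * (x : G)) * b := by group
          _ = ((x : G) * a) * b := by rw [h2]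
          _ = (x : G) * (a * b) := by group
      exact (mul_left_cancel h3).symm
  intro a ha b hb
  obtain ⟨a₁, ha₁, a₂, ha₂, rfl⟩ := Cfsg.Agent.Lib.Helper23.mem_sup_of_commute K Ks hcomm ha
  obtain ⟨b₁, hb₁, b₂, hb₂, rfl⟩ := Cfsg.Agent.Lib.Helper23.mem_sup_of_commute K Ks hcomm hb
  have e1 := hK a₁ ha₁ b₁ hb₁
  have e2 := hKs a₂ ha₂ b₂ hb₂
  have e3 := hcomm b₁ hb₁ a₂ ha₂
  have e4 := hcomm a₁ ha₁ b₂ hb₂
  calc a₁ * a₂ * (b₁ * b₂) = a₁ * (a₂ * b₁) * b₂ := by group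
    _ = a₁ * (b₁ * a₂) * b₂ := by rw [e3]
    _ = (a₁ * b₁) * (a₂ * b₂) := by group
    _ = (b₁ * a₁) * (b₂ * a₂) := by rw [e1, e2]
    _ = b₁ * (a₁ * b₂) * a₂ := by group
    _ = b₁ * (b₂ * a₁) * a₂ := by rw [e4]
    _ = b₁ * b₂ * (a₁ * a₂) := by group

/-- The normalizer of `Ẑ` is `Z = K K*`, when `N_G(K)`-elements normalizing `Z` lie in `Z`. -/
theorem normalizer_zHat [Finite G] {K Ks : Subgroup G}
    (hK : ∀ a ∈ K, ∀ b ∈ K, a * b = b * a)
    (hcomm : ∀ a ∈ K, ∀ b ∈ Ks, a * b = b * a) (hcop : (Nat.card K).Coprime (Nat.card Ks))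
    (hK1 : K ≠ ⊥) (hKs1 : Ks ≠ ⊥)
    (hcent : ∀ x ∈ K, x ≠ 1 → ∀ y ∈ Ks, y ≠ 1 →
      Subgroup.centralizer ({x * y} : Set G) = K ⊔ Ks)
    (hN : ∀ g : G, g ∈ Subgroup.normalizer (K : Set G) →
      (∃ z ∈ zHat K Ks, g * z * g⁻¹ ∈ zHat K Ks) → g ∈ K ⊔ Ks) :
    Subgroup.normalizer (zHat K Ks) = K ⊔ Ks := by
  obtain ⟨x, hx1⟩ := (Subgroup.ne_bot_iff_exists_ne_one.mp hK1)
  have hx' : (x : G) ≠ 1 := fun h => hx1 (Subtype.ext h)
  obtain ⟨y, hy1⟩ := (Subgroup.ne_bot_iff_exists_ne_one.mp hKs1)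
  have hy' : (y : G) ≠ 1 := fun h => hy1 (Subtype.ext h)
  have hz : (x : G) * (y : G) ∈ zHat K Ks := mul_mem_zHat hcop x.2 hx' y.2 hy'
  have hab := sup_comm_of_cent hK hcomm hK1 hcent
  apply le_antisymm
  · intro g hg
    have hgz : g * ((x : G) * (y : G)) * g⁻¹ ∈ zHat K Ks :=
      (Subgroup.mem_set_normalizer_iff.mp hg _).mp hz
    obtain ⟨h1, h2⟩ := conj_sup_of_zHat hcomm hcent hz hgz
    exact hN g (normalizes_of_conj_sup hcomm hcop h1 h2).1 ⟨_, hz, hgz⟩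
  · intro g hg
    rw [Subgroup.mem_set_normalizer_iff]
    intro w
    have key : ∀ w ∈ K ⊔ Ks, g * w * g⁻¹ = w := by
      intro w hw
      rw [hab g hg w hw, mul_inv_cancel_right]
    constructor
    · intro hw
      rw [key w hw.1]; exact hw
    · intro hw
      have hwZ : w ∈ K ⊔ Ks := by
        have h3 := hw.1
        have h4 : g⁻¹ * (g * w * g⁻¹) * g ∈ K ⊔ Ks :=
          Subgroup.mul_mem _ (Subgroup.mul_mem _ (Subgroup.inv_mem _ hg) h3) hg
        have e : g⁻¹ * (g * w * g⁻¹) * g = w := by group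
        rwa [e] at h4
      rw [key w hwZ] at hw
      exact hw

end Cfsg.Agent.Lib.Helper20.BG
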