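import Mathlib
import Cfsg.Prelude.Def_OddOrderLocal
import Cfsg.Statements.S1354
import Cfsg.Statements.S1366
import Cfsg.Statements.S1430
import Cfsg.Statements.S1434
import Cfsg.Agent.Lib.Helper20.BG.ZHat
import Cfsg.Agent.Lib.Helper67.BG.Basics

/-!
Bender–Glauberman: `Ẑ = K K* − (K ∪ K*)` is a TI-subset with normalizer `K K*` (statement S1370),
derived from S1354 (`K* ≠ 1`), S1366 (the partner `M*`), S1430 (`N_M(K) = K K*`) and S1434
(`C_G(x y) = K K*`, `Ẑ ∩ M^g = ∅`), which are taken as hypotheses.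
-/

set_option autoImplicit false

namespace Cfsg.Agent.Lib.Helper20.BG

open Cfsg

/-- Elements of a cyclic subgroup commute. -/
theorem comm_of_isCyclic {G : Type*} [Group G] {K : Subgroup G} (hK : IsCyclic K) :
    ∀ a ∈ K, ∀ b ∈ K, a * b = b * a := by
  intro a ha b hb
  obtain ⟨g, hg⟩ := hK.exists_generator
  obtain ⟨m, hm⟩ := Subgroup.mem_zpowers_iff.mp (hg ⟨a, ha⟩)
  obtain ⟨n, hn⟩ := Subgroup.mem_zpowers_iff.mp (hg ⟨b, hb⟩)
  have h : (⟨a, ha⟩ : K) * ⟨b, hb⟩ = ⟨b, hb⟩ * ⟨a, ha⟩ := by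
    rw [← hm, ← hn, ← zpow_add, ← zpow_add, add_comm]
  exact congrArg Subtype.val h

/-- The standing facts about `K` and `K* = M_σ ∩ C_G(K)` in a standard factorisation. -/
theorem sigmaDecomp_facts {G : Type*} [Group G] [Finite G] {M K U : Subgroup G}
    (hKU : Cfsg.IsSigmaDecomposition M K U) :
    (∀ a ∈ K, ∀ b ∈ K, a * b = b * a) ∧
    (∀ a ∈ K, ∀ b ∈ Cfsg.sigmaCore M ⊓ Subgroup.centralizer (K : Set G), a * b = b * a) ∧
    (Nat.card K).Coprime (Nat.card ↥(Cfsg.sigmaCore M ⊓ Subgroup.centralizer (K : Set G))) ∧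
    K ⊔ (Cfsg.sigmaCore M ⊓ Subgroup.centralizer (K : Set G)) ≤ M := by
  refine ⟨comm_of_isCyclic hKU.cyclic, ?_, ?_, ?_⟩
  · intro a ha b hb
    exact (Subgroup.mem_centralizer_iff.mp hb.2) a ha
  · apply Nat.Coprime.symm
    apply Nat.coprime_of_dvd
    intro p hp hdvd hdvd'
    have h1 : p ∈ Cfsg.kappa M := hKU.hall.2.1 p hp hdvd'
    have h2 : p ∈ Cfsg.sigma M := by
      apply Cfsg.Agent.Lib.Helper67.BG.sigmaCore_isPi M p hp
      exact hdvd.trans (Subgroup.card_dvd_of_le inf_le_left)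
    exact h1.2.2.1 h2
  · exact sup_le hKU.hall.1 (inf_le_left.trans (Cfsg.Agent.Lib.Helper67.BG.sigmaCore_le M))

theorem s1370_core {G : Type*} [Group G] [Finite G] (hG : Cfsg.IsMinSimpleOddOrder G)
    (h1354 : type_of% (@Cfsg.CfsgFrozen.S1354 G _ _ hG))
    (h1366 : type_of% (@Cfsg.CfsgFrozen.S1366 G _ _ hG))
    (h1430 : type_of% (@Cfsg.CfsgFrozen.S1430 G _ _ hG))
    (h1434 : type_of% (@Cfsg.CfsgFrozen.S1434 G _ _ hG))
    (M : Subgroup G) (hM : IsCoatom M) (K U : Subgroup G) (hKU : Cfsg.IsSigmaDecomposition M K U)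
    (hK1 : K ≠ ⊥) :
    Cfsg.IsTISubset ((↑(K ⊔ (Cfsg.sigmaCore M ⊓ Subgroup.centralizer (K : Set G))) : Set G) \
        ((K : Set G) ∪ ↑(Cfsg.sigmaCore M ⊓ Subgroup.centralizer (K : Set G)))) ∧
      Subgroup.normalizer ((↑(K ⊔ (Cfsg.sigmaCore M ⊓ Subgroup.centralizer (K : Set G))) : Set G) \
        ((K : Set G) ∪ ↑(Cfsg.sigmaCore M ⊓ Subgroup.centralizer (K : Set G)))) =
        K ⊔ (Cfsg.sigmaCore M ⊓ Subgroup.centralizer (K : Set G)) := by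
  obtain ⟨hKc, hcomm, hcop, hZM⟩ := sigmaDecomp_facts hKU
  obtain ⟨Mstar, ⟨hMs, hKst, hKstH⟩, -⟩ := h1366 M hM K U hKU hK1
  obtain ⟨-, -, hcent3, hdisj, -, -⟩ := h1434 M hM K U hKU hK1 Mstar hMs hKst hKstH
  have hcent : ∀ x ∈ K, x ≠ 1 → ∀ y ∈ Cfsg.sigmaCore M ⊓ Subgroup.centralizer (K : Set G), y ≠ 1 →
      Subgroup.centralizer ({x * y} : Set G) =
        K ⊔ (Cfsg.sigmaCore M ⊓ Subgroup.centralizer (K : Set G)) :=
    fun x hx hx1 y hy hy1 => (hcent3 x hx hx1 y hy hy1).2.2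
  have hKs1 := (h1354 M hM K hKU.cyclic hKU.hall).1
  refine ⟨zHat_isTISubset hcomm hcop hcent, ?_⟩
  apply normalizer_zHat hKc hcomm hcop hK1 hKs1 hcent
  rintro g hgK ⟨z, hz, hgz⟩
  -- `g ∈ M`
  have hgM : g ∈ M := by
    by_contra hgM
    apply hdisj g hgM (g * z * g⁻¹) hgz
    exact ⟨z, hZM hz.1, rfl⟩
  -- a subgroup of prime order of `K`
  have hcard : Nat.card K ≠ 1 := fun h => hK1 (Subgroup.card_eq_one.mp h)
  obtain ⟨p, hp, hpdvd⟩ := Nat.exists_prime_and_dvd hcard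
  have : Fact p.Prime := ⟨hp⟩
  obtain ⟨x, hxo⟩ := exists_prime_orderOf_dvd_card' p hpdvd
  have hXle : Subgroup.zpowers (x : G) ≤ K := by
    rw [Subgroup.zpowers_le]; exact x.2
  have hXcard : (Nat.card (Subgroup.zpowers (x : G))).Prime := by
    rw [Nat.card_zpowers, Subgroup.orderOf_coe, hxo]; exact hp
  obtain ⟨-, -, h3⟩ := h1430 M hM K hKU.hall hK1
  have hNK := (h3 _ hXle hXcard).2.1
  rw [← hNK]
  exact ⟨hgM, hgK⟩

end Cfsg.Agent.Lib.Helper20.BG
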