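import Mathlib
import Cfsg.Prelude.Def_OddOrderLocal
import Cfsg.Statements.S1352
import Cfsg.Statements.S1370
import Cfsg.Statements.S1430
import Cfsg.Agent.Lib.Helper20.BG.S1370Core
import Cfsg.Agent.Lib.Helper35.BG.Hall
import Cfsg.Agent.Lib.Helper67.BG.HallUtil

/-!
Bender–Glauberman: the union of the `M`-conjugates of `Ẑ = K K* − (K ∪ K*)` is `A₀(M) − A(M)`,
and it is a TI-subset of `G` (statement S1371), derived from S1352 (`U M_σ ⊴ M`), S1370 (`Ẑ` is TI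
with normalizer `K K*`) and S1430 (`N_M(X) = K K*`), which are taken as hypotheses.
-/

set_option autoImplicit false

namespace Cfsg.Agent.Lib.Helper20.BG

open Cfsg

/-- Product decomposition in `A ⊔ N` when `A` normalizes `N`. -/
theorem exists_mul_of_mem_sup_norm {G : Type*} [Group G] {N A : Subgroup G}
    (hAN : A ≤ Subgroup.normalizer (N : Set G))
    {x : G} (hx : x ∈ A ⊔ N) : ∃ a ∈ A, ∃ n ∈ N, x = a * n := by
  rw [Subgroup.sup_eq_closure_mul] at hx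
  induction hx using Subgroup.closure_induction with
  | mem x hx =>
    obtain ⟨a, ha, n, hn, rfl⟩ := Set.mem_mul.mp hx
    exact ⟨a, ha, n, hn, rfl⟩
  | one => exact ⟨1, A.one_mem, 1, N.one_mem, by simp⟩
  | mul x y _ _ ihx ihy =>
    obtain ⟨a₁, ha₁, n₁, hn₁, rfl⟩ := ihx
    obtain ⟨a₂, ha₂, n₂, hn₂, rfl⟩ := ihy
    refine ⟨a₁ * a₂, A.mul_mem ha₁ ha₂, a₂⁻¹ * n₁ * a₂ * n₂, ?_, by group⟩
    have h := (Subgroup.mem_normalizer_iff.mp (hAN (A.inv_mem ha₂)) n₁).mp hn₁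
    rw [inv_inv] at h
    exact N.mul_mem h hn₂
  | inv x _ ih =>
    obtain ⟨a, ha, n, hn, rfl⟩ := ih
    refine ⟨a⁻¹, A.inv_mem ha, a * n⁻¹ * a⁻¹, ?_, by group⟩
    exact (Subgroup.mem_normalizer_iff.mp (hAN ha) n⁻¹).mp (N.inv_mem hn)

/-- If `M = K N` with `N` normalized by `M`, then `m ^ #K ∈ N` for all `m ∈ M`. -/
theorem pow_card_mem_of_factor {G : Type*} [Group G] [Finite G] {M K N : Subgroup G}
    (hKM : K ≤ M) (hMN : M ≤ Subgroup.normalizer (N : Set G))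
    (hfac : ∀ m ∈ M, ∃ k ∈ K, ∃ w ∈ N, m = k * w) {m : G} (hm : m ∈ M) :
    m ^ Nat.card K ∈ N := by
  obtain ⟨k, hk, w, hw, rfl⟩ := hfac m hm
  have key : ∀ j : ℕ, ∃ w' ∈ N, (k * w) ^ j = k ^ j * w' := by
    intro j
    induction j with
    | zero => exact ⟨1, N.one_mem, by simp⟩
    | succ j ih =>
      obtain ⟨w', hw', e⟩ := ih
      refine ⟨k⁻¹ * w' * k * w, ?_, ?_⟩
      · have h := (Subgroup.mem_normalizer_iff.mp (hMN (M.inv_mem (hKM hk))) w').mp hw'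
        rw [inv_inv] at h
        exact N.mul_mem h hw
      · rw [pow_succ, e, pow_succ]; group
  obtain ⟨w', hw', e⟩ := key (Nat.card K)
  have hk1 : k ^ Nat.card K = 1 := by
    have := pow_card_eq_one' (G := K) (x := ⟨k, hk⟩)
    exact congrArg Subtype.val this
  rw [e, hk1, one_mul]
  exact hw'

theorem s1371_core {G : Type*} [Group G] [Finite G] (hG : Cfsg.IsMinSimpleOddOrder G)
    (h1352 : type_of% (@Cfsg.CfsgFrozen.S1352 G _ _ hG))
    (h1370 : type_of% (@Cfsg.CfsgFrozen.S1370 G _ _ hG))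
    (h1430 : type_of% (@Cfsg.CfsgFrozen.S1430 G _ _ hG))
    (M : Subgroup G) (hM : IsCoatom M) (K U : Subgroup G) (hKU : Cfsg.IsSigmaDecomposition M K U)
    (hK1 : K ≠ ⊥) :
    {a : G | ∃ m ∈ M, ∃ z ∈ ((↑(K ⊔ (Cfsg.sigmaCore M ⊓ Subgroup.centralizer (K : Set G))) : Set G) \
        ((K : Set G) ∪ ↑(Cfsg.sigmaCore M ⊓ Subgroup.centralizer (K : Set G)))),
        a = m * z * m⁻¹} = Cfsg.sigmaA0 M K \ Cfsg.sigmaA M U ∧
      Cfsg.IsTISubset (Cfsg.sigmaA0 M K \ Cfsg.sigmaA M U) := by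
  obtain ⟨hKc, hcomm, hcop, hZM⟩ := sigmaDecomp_facts hKU
  obtain ⟨hTI, hNZ⟩ := h1370 M hM K U hKU hK1
  obtain ⟨-, -, h3⟩ := h1430 M hM K hKU.hall hK1
  have hNorm := (h1352 M hM K hKU.cyclic hKU.hall).2 U hKU
  have hMsolv : Group.IsSolvable M := Cfsg.Agent.Lib.Helper35.BG.isSolvable_of_ne_top hG hM.1
  have hσn := Cfsg.Agent.Lib.Helper67.BG.sigmaCore_normalizer M
  have hσM := Cfsg.Agent.Lib.Helper67.BG.sigmaCore_le M
  have hKM : K ≤ M := hKU.hall.1
  obtain ⟨hUM, -, hUinf, hUfac⟩ := hKU.compl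
  -- abbreviations
  obtain ⟨Ks, hKsdef⟩ : ∃ Ks : Subgroup G,
      Ks = Cfsg.sigmaCore M ⊓ Subgroup.centralizer (K : Set G) := ⟨_, rfl⟩
  obtain ⟨N, hNdef⟩ : ∃ N : Subgroup G, N = U ⊔ Cfsg.sigmaCore M := ⟨_, rfl⟩
  rw [← hKsdef] at hcomm hcop hZM hTI hNZ h3 ⊢
  rw [← hNdef] at hNorm
  have hKsσ : Ks ≤ Cfsg.sigmaCore M := by rw [hKsdef]; exact inf_le_left
  have hσN : Cfsg.sigmaCore M ≤ N := by rw [hNdef]; exact le_sup_right
  have hUN : U ≤ N := by rw [hNdef]; exact le_sup_left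
  have hNM : N ≤ M := by rw [hNdef]; exact sup_le hUM hσM
  -- `#K` and `#M_σ` are coprime
  have hcopσ : (Nat.card K).Coprime (Nat.card (Cfsg.sigmaCore M)) := by
    apply Nat.Coprime.symm
    apply Nat.coprime_of_dvd
    intro p hp hdvd hdvd'
    have h1 : p ∈ Cfsg.kappa M := hKU.hall.2.1 p hp hdvd'
    exact h1.2.2.1 (Cfsg.Agent.Lib.Helper67.BG.sigmaCore_isPi M p hp hdvd)
  -- `K ∩ N = 1`
  have hKN : ∀ x ∈ K, x ∈ N → x = 1 := by
    intro x hxK hxN
    rw [hNdef] at hxN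
    obtain ⟨u, hu, s, hs, rfl⟩ := exists_mul_of_mem_sup_norm (hUM.trans hσn) hxN
    have hu1 : u = 1 := by
      have h1 : u ∈ K ⊔ Cfsg.sigmaCore M := by
        have h2 : u = u * s * s⁻¹ := by group
        rw [h2]
        exact Subgroup.mul_mem _ (Subgroup.mem_sup_left hxK)
          (Subgroup.mem_sup_right (Subgroup.inv_mem _ hs))
      have h3 : u ∈ U ⊓ (K ⊔ Cfsg.sigmaCore M) := ⟨hu, h1⟩
      rw [hUinf] at h3
      exact Subgroup.mem_bot.mp h3
    rw [hu1, one_mul] at hxK ⊢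
    exact inf_eq_bot_of_coprime hcopσ hxK hs
  -- `M = K N`
  have hfac : ∀ m ∈ M, ∃ k ∈ K, ∃ w ∈ N, m = k * w := by
    intro m hm
    obtain ⟨u, hu, b, hb, rfl⟩ := hUfac m hm
    obtain ⟨k, hk, s, hs, rfl⟩ := exists_mul_of_mem_sup_norm (hKM.trans hσn) hb
    refine ⟨k, hk, k⁻¹ * u * k * s, ?_, by group⟩
    have h := (Subgroup.mem_normalizer_iff.mp (hNorm (M.inv_mem (hKM hk))) u).mp (hUN hu)
    rw [inv_inv] at h
    exact N.mul_mem h (hσN hs)
  -- `1 ∉ Ẑ`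
  have hone : ∀ z ∈ ((↑(K ⊔ Ks) : Set G) \ ((K : Set G) ∪ ↑Ks)), z ≠ 1 := by
    rintro z hz rfl
    exact hz.2 (Or.inl K.one_mem)
  -- the target set is invariant under `M`
  have hinv : ∀ m ∈ M, ∀ a ∈ Cfsg.sigmaA0 M K \ Cfsg.sigmaA M U,
      m * a * m⁻¹ ∈ Cfsg.sigmaA0 M K \ Cfsg.sigmaA M U := by
    rintro m hm a ⟨⟨⟨haM, y, hy, hy1, hay⟩, hnot⟩, hnA⟩
    have hmaM : m * a * m⁻¹ ∈ M := M.mul_mem (M.mul_mem hm haM) (M.inv_mem hm)
    have hhat : m * a * m⁻¹ ∈ Cfsg.sigmaHat M := by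
      refine ⟨hmaM, m * y * m⁻¹, (Subgroup.mem_normalizer_iff.mp (hσn hm) y).mp hy, ?_, ?_⟩
      · intro h
        apply hy1
        have h2 : y = m⁻¹ * (m * y * m⁻¹) * m := by group
        rw [h2, h]; group
      · calc m * a * m⁻¹ * (m * y * m⁻¹) = m * (a * y) * m⁻¹ := by group
          _ = m * (y * a) * m⁻¹ := by rw [hay]
          _ = m * y * m⁻¹ * (m * a * m⁻¹) := by group
    refine ⟨⟨hhat, ?_⟩, ?_⟩
    · rintro ⟨k, hk, hk1, m', hm', he⟩
      apply hnot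
      refine ⟨k, hk, hk1, m⁻¹ * m', M.mul_mem (M.inv_mem hm) hm', ?_⟩
      have h2 : a = m⁻¹ * (m * a * m⁻¹) * m := by group
      rw [h2, he]; group
    · rintro ⟨-, hN'⟩
      apply hnA
      refine ⟨⟨haM, y, hy, hy1, hay⟩, ?_⟩
      rw [← hNdef] at hN' ⊢
      exact (Subgroup.mem_normalizer_iff.mp (hNorm hm) a).mpr hN'
  -- `Ẑ` lies in the target set
  have hA : ∀ z ∈ ((↑(K ⊔ Ks) : Set G) \ ((K : Set G) ∪ ↑Ks)),
      z ∈ Cfsg.sigmaA0 M K \ Cfsg.sigmaA M U := by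
    intro z hz
    obtain ⟨x, hx, hx1, y, hy, hy1, rfl⟩ := zHat_decomp hcomm hz
    have hxy := hcomm x hx y hy
    have hhat : x * y ∈ Cfsg.sigmaHat M := by
      refine ⟨hZM hz.1, y, hKsσ hy, hy1, ?_⟩
      calc x * y * y = (x * y) * y := rfl
        _ = (y * x) * y := by rw [hxy]
        _ = y * (x * y) := by group
    refine ⟨⟨hhat, ?_⟩, ?_⟩
    · rintro ⟨k, hk, hk1, m, hm, he⟩
      apply hz.2
      left
      apply mem_left_of_pow hcomm hcop hz.1
      rw [he]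
      have h2 : (m * k * m⁻¹) ^ Nat.card K = m * k ^ Nat.card K * m⁻¹ := by
        rw [← MulAut.conj_apply, ← map_pow, MulAut.conj_apply]
      rw [h2]
      have hk1' : k ^ Nat.card K = 1 := by
        have := pow_card_eq_one' (G := K) (x := ⟨k, hk⟩)
        exact congrArg Subtype.val this
      rw [hk1']; group
    · rintro ⟨-, hN'⟩
      rw [← hNdef] at hN'
      apply hx1
      apply hKN x hx
      have h2 : x = x * y * y⁻¹ := by group
      rw [h2]
      exact N.mul_mem hN' (N.inv_mem (hσN (hKsσ hy)))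
  -- every element of the target set is `M`-conjugate into `Ẑ`
  have hC : ∀ a ∈ Cfsg.sigmaA0 M K \ Cfsg.sigmaA M U,
      ∃ m ∈ M, ∃ z ∈ ((↑(K ⊔ Ks) : Set G) \ ((K : Set G) ∪ ↑Ks)), a = m * z * m⁻¹ := by
    rintro a ⟨⟨hhat, hnot⟩, hnA⟩
    have haM : a ∈ M := hhat.1
    have haN : a ∉ N := by
      intro h
      apply hnA
      refine ⟨hhat, ?_⟩
      rw [← hNdef]; exact h
    -- the `κ`-part of `a`
    have hn1 : 1 < Nat.card K := by
      have h0 : 0 < Nat.card K := Nat.card_pos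
      have hne : Nat.card K ≠ 1 := fun h => hK1 (Subgroup.card_eq_one.mp h)
      omega
    have hcopr : (K.relIndex M).Coprime (Nat.card K) := by
      apply Nat.coprime_of_dvd
      intro p hp h1 h2
      exact hKU.hall.2.2 p hp (hKU.hall.2.1 p hp h2) h1
    obtain ⟨c, hc⟩ := Nat.exists_mul_mod_eq_one_of_coprime hcopr hn1
    have hcardM : Nat.card K * K.relIndex M = Nat.card M :=
      Cfsg.Agent.Lib.Helper35.BG.card_mul_relIndex' hKM
    have hapow : a ^ Nat.card K ∈ N := pow_card_mem_of_factor hKM hNorm hfac haM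
    obtain ⟨k₀, hk₀def⟩ : ∃ k₀ : G, k₀ = a ^ (K.relIndex M * c) := ⟨_, rfl⟩
    have hk₀M : k₀ ∈ M := by rw [hk₀def]; exact M.pow_mem haM _
    have hk₀pow : k₀ ^ Nat.card K = 1 := by
      rw [hk₀def, ← pow_mul]
      have h2 : K.relIndex M * c * Nat.card K = Nat.card M * c := by rw [← hcardM]; ring
      rw [h2, pow_mul]
      have h3 : a ^ Nat.card M = 1 := by
        have := pow_card_eq_one' (G := M) (x := ⟨a, haM⟩)
        exact congrArg Subtype.val this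
      rw [h3, one_pow]
    have hk₀N : k₀ ∉ N := by
      intro h
      apply haN
      have h2 : K.relIndex M * c = 1 + Nat.card K * (K.relIndex M * c / Nat.card K) := by
        have := Nat.mod_add_div (K.relIndex M * c) (Nat.card K)
        rw [hc.2] at this
        exact this.symm
      rw [hk₀def, h2, pow_add, pow_one, pow_mul] at h
      have h3 : a = a * (a ^ Nat.card K) ^ (K.relIndex M * c / Nat.card K) *
          ((a ^ Nat.card K) ^ (K.relIndex M * c / Nat.card K))⁻¹ := by group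
      rw [h3]
      exact N.mul_mem h (N.inv_mem (N.pow_mem hapow _))
    have hk₀1 : k₀ ≠ 1 := fun h => hk₀N (h ▸ N.one_mem)
    have hak₀ : a * k₀ = k₀ * a := by
      rw [hk₀def, ← pow_succ', ← pow_succ]
    -- conjugate `k₀` into `K`
    have hXM : Subgroup.zpowers k₀ ≤ M := by rw [Subgroup.zpowers_le]; exact hk₀M
    have hXκ : ∀ p : ℕ, p.Prime → p ∣ Nat.card (Subgroup.zpowers k₀) → p ∈ Cfsg.kappa M := by
      intro p hp hdvd
      rw [Nat.card_zpowers] at hdvd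
      exact hKU.hall.2.1 p hp (hdvd.trans (orderOf_dvd_of_pow_eq_one hk₀pow))
    obtain ⟨K', hK', hXK'⟩ := Cfsg.Agent.Lib.Helper67.BG.exists_piHallOf_ge (Cfsg.kappa M) M hMsolv
      (Subgroup.zpowers k₀) hXM hXκ
    obtain ⟨m, hm, hK'eq⟩ := Cfsg.Agent.Lib.Helper35.BG.exists_conj_of_isPiHallOf hMsolv hKU.hall hK'
    have hk₀K' : k₀ ∈ K' := hXK' (Subgroup.mem_zpowers k₀)
    rw [hK'eq] at hk₀K'
    obtain ⟨k, hk, hkeq⟩ := hk₀K'
    simp only [MulEquiv.coe_toMonoidHom, MulAut.conj_apply] at hkeq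
    have hk1 : k ≠ 1 := by
      rintro rfl
      apply hk₀1
      rw [← hkeq]; group
    obtain ⟨a', ha'def⟩ : ∃ a' : G, a' = m⁻¹ * a * m := ⟨_, rfl⟩
    have ha'M : a' ∈ M := by
      rw [ha'def]; exact M.mul_mem (M.mul_mem (M.inv_mem hm) haM) hm
    have haa' : a = m * a' * m⁻¹ := by rw [ha'def]; group
    have ha'k : a' * k = k * a' := by
      have h2 : k = m⁻¹ * k₀ * m := by rw [← hkeq]; group
      rw [ha'def, h2]
      calc m⁻¹ * a * m * (m⁻¹ * k₀ * m) = m⁻¹ * (a * k₀) * m := by group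
        _ = m⁻¹ * (k₀ * a) * m := by rw [hak₀]
        _ = m⁻¹ * k₀ * m * (m⁻¹ * a * m) := by group
    -- a subgroup of prime order of `⟨k⟩`
    have hok : orderOf k ≠ 1 := fun h => hk1 (orderOf_eq_one_iff.mp h)
    obtain ⟨p, hp, hpdvd⟩ := Nat.exists_prime_and_dvd hok
    have hokpos : 0 < orderOf k := orderOf_pos k
    obtain ⟨x₀, hx₀def⟩ : ∃ x₀ : G, x₀ = k ^ (orderOf k / p) := ⟨_, rfl⟩
    have hx₀o : orderOf x₀ = p := by
      rw [hx₀def]
      exact orderOf_pow_orderOf_div hokpos.ne' hpdvd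
    have hx₀K : x₀ ∈ K := by rw [hx₀def]; exact K.pow_mem hk _
    have hXle : Subgroup.zpowers x₀ ≤ K := by rw [Subgroup.zpowers_le]; exact hx₀K
    have hXcard : (Nat.card (Subgroup.zpowers x₀)).Prime := by
      rw [Nat.card_zpowers, hx₀o]; exact hp
    have hNX := (h3 _ hXle hXcard).1
    have ha'x₀ : a' * x₀ = x₀ * a' := by
      rw [hx₀def]
      exact ((Commute.pow_right (show Commute a' k from ha'k)) _).eq
    have ha'Z : a' ∈ K ⊔ Ks := by
      rw [← hNX]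
      refine ⟨ha'M, ?_⟩
      show a' ∈ Subgroup.normalizer ((Subgroup.zpowers x₀ : Subgroup G) : Set G)
      rw [Subgroup.mem_normalizer_iff]
      intro h
      have key : ∀ w ∈ Subgroup.zpowers x₀, a' * w * a'⁻¹ = w := by
        intro w hw
        obtain ⟨j, rfl⟩ := Subgroup.mem_zpowers_iff.mp hw
        have := (Commute.zpow_right (show Commute a' x₀ from ha'x₀) j).eq
        rw [this, mul_inv_cancel_right]
      constructor
      · intro hh
        rw [key h hh]; exact hh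
      · intro hh
        have h4 : a'⁻¹ * (a' * h * a'⁻¹) * a' = h := by group
        have h5 : a'⁻¹ * (a' * h * a'⁻¹) * a' = a' * h * a'⁻¹ := by
          have := key _ hh
          calc a'⁻¹ * (a' * h * a'⁻¹) * a' = a'⁻¹ * (a' * (a' * h * a'⁻¹) * a'⁻¹) * a' := by
                rw [this]
            _ = a' * h * a'⁻¹ := by group
        rw [h4] at h5
        rw [h5]; exact hh
    refine ⟨m, hm, a', ⟨ha'Z, ?_⟩, haa'⟩
    rintro (h | h)
    · apply hnot
      refine ⟨a', h, ?_, m, hm, haa'⟩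
      rintro rfl
      apply haN
      rw [haa']
      have : m * 1 * m⁻¹ = 1 := by group
      rw [this]; exact N.one_mem
    · apply haN
      rw [haa']
      exact hσN ((Subgroup.mem_normalizer_iff.mp (hσn hm) a').mp (hKsσ h))
  have hEq : {a : G | ∃ m ∈ M, ∃ z ∈ ((↑(K ⊔ Ks) : Set G) \ ((K : Set G) ∪ ↑Ks)),
      a = m * z * m⁻¹} = Cfsg.sigmaA0 M K \ Cfsg.sigmaA M U := by
    ext a
    constructor
    · rintro ⟨m, hm, z, hz, rfl⟩
      exact hinv m hm z (hA z hz)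
    · intro ha
      exact hC a ha
  refine ⟨hEq, ?_⟩
  rw [← hEq]
  intro g hg x hx hgx
  by_contra hx1
  apply hg
  obtain ⟨m, hm, z, hz, rfl⟩ := hx
  obtain ⟨m', hm', z', hz', he⟩ := hgx
  have hgM : g ∈ M := by
    have hh : m'⁻¹ * g * m ∈ Subgroup.normalizer
        ((↑(K ⊔ Ks) : Set G) \ ((K : Set G) ∪ ↑Ks)) := by
      by_contra hcon
      apply hone z hz
      apply hTI _ hcon z hz
      have h2 : m'⁻¹ * g * m * z * (m'⁻¹ * g * m)⁻¹ = m'⁻¹ * (g * (m * z * m⁻¹) * g⁻¹) * m' := by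
        group
      rw [h2, he]
      have h3 : m'⁻¹ * (m' * z' * m'⁻¹) * m' = z' := by group
      rw [h3]; exact hz'
    rw [hNZ] at hh
    have h4 : g = m' * (m'⁻¹ * g * m) * m⁻¹ := by group
    rw [h4]
    exact M.mul_mem (M.mul_mem hm' (hZM hh)) (M.inv_mem hm)
  rw [Subgroup.mem_set_normalizer_iff]
  intro w
  constructor
  · rintro ⟨m₁, hm₁, z₁, hz₁, rfl⟩
    refine ⟨g * m₁, M.mul_mem hgM hm₁, z₁, hz₁, by group⟩
  · rintro ⟨m₁, hm₁, z₁, hz₁, he₁⟩
    refine ⟨g⁻¹ * m₁, M.mul_mem (M.inv_mem hgM) hm₁, z₁, hz₁, ?_⟩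
    have h5 : w = g⁻¹ * (g * w * g⁻¹) * g := by group
    rw [h5, he₁]; group

end Cfsg.Agent.Lib.Helper20.BG
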