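import Mathlib
import Cfsg.Agent.Lib.Helper52.BG.S1380Defs
import Cfsg.Agent.Lib.Helper23.Compl

/-!
# Package B of the S1380 project (helper52): transfer and a cyclic normal subgroup

`M = H ⋊ E`, `H` an `r'`-group, `X ⊴ E` cyclic, the `r`-subgroups of `E` abelian, every cyclic
normal subgroup of `M` lies in `M'`, and every `r`-element of `M'` centralizes `H`.  If `y ∈ X` has
order `r ^ (k+1)` and `y ^ (r ^ k)` centralizes `H`, then `y` centralizes `H`.
-/

set_option autoImplicit false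

namespace Cfsg.Agent.Lib.Helper20.BG

universe u

open scoped commutatorElement

/-- In a finite cyclic group two elements of the same order generate the same subgroup. -/
theorem mem_zpowers_of_orderOf_eq80 {K : Type*} [Group K] [Finite K] [IsCyclic K] (a b : K)
    (h : orderOf a = orderOf b) : a ∈ Subgroup.zpowers b := by
  classical
  have := Fintype.ofFinite K
  have hm : 0 < orderOf b := orderOf_pos b
  have h1 := IsCyclic.card_pow_eq_one_le (α := K) hm
  have h2 : (Finset.univ.filter (fun x : K => x ∈ Subgroup.zpowers b)) ⊆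
      Finset.univ.filter (fun x : K => x ^ orderOf b = 1) := by
    intro x hx
    simp only [Finset.mem_filter, Finset.mem_univ, true_and] at hx ⊢
    obtain ⟨k, rfl⟩ := hx
    rw [← zpow_natCast, ← zpow_mul, mul_comm, zpow_mul, zpow_natCast, pow_orderOf_eq_one,
      one_zpow]
  have h3 : (Finset.univ.filter (fun x : K => x ∈ Subgroup.zpowers b)).card = orderOf b := by
    rw [← Nat.card_zpowers, Nat.card_eq_fintype_card, Fintype.card_subtype]
  have h4 := Finset.eq_of_subset_of_card_le h2 (by rw [h3]; exact h1)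
  have h5 : a ∈ Finset.univ.filter (fun x : K => x ^ orderOf b = 1) := by
    simp only [Finset.mem_filter, Finset.mem_univ, true_and]
    rw [← h]; exact pow_orderOf_eq_one a
  rw [← h4] at h5
  simpa using h5

/-- A subgroup mapped into `C` by all conjugations from `M` is normalized by `M`. -/
theorem le_set_normalizer_of_conj_mem80 {G : Type*} [Group G] (M C : Subgroup G)
    (h : ∀ m ∈ M, ∀ c ∈ C, m * c * m⁻¹ ∈ C) : M ≤ Subgroup.normalizer (C : Set G) := by
  intro m hm
  rw [Subgroup.mem_set_normalizer_iff]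
  intro c
  constructor
  · exact h m hm c
  · intro hc
    have := h m⁻¹ (M.inv_mem hm) _ hc
    simpa [mul_assoc] using this

/-- A central element of `M` of prime order `r` lying in `M'` cannot exist when `M` has an abelian
`r`-subgroup of index prime to `r` (transfer). -/
theorem not_mem_commutator_of_central80 {G : Type u} [Group G] [Finite G] (M R : Subgroup G)
    (r : ℕ) (hRab : IsMulCommutative ↥R)
    (hRidx : ¬ r ∣ R.relIndex M) (z : G) (hzM : z ∈ M) (hz : orderOf z = r)
    (hcen : ∀ m ∈ M, m * z = z * m) : z ∉ ⁅M, M⁆ := by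
  intro hzM'
  rw [← Subgroup.map_subtype_commutator] at hzM'
  obtain ⟨z', hz', hzz⟩ := hzM'
  have hz'' : z' = ⟨z, hzM⟩ := Subtype.ext hzz
  subst hz''
  have key : ∀ (k : ℕ) (g₀ : ↥M), g₀⁻¹ * (⟨z, hzM⟩ : ↥M) ^ k * g₀ ∈ R.subgroupOf M →
      g₀⁻¹ * (⟨z, hzM⟩ : ↥M) ^ k * g₀ = (⟨z, hzM⟩ : ↥M) ^ k := by
    intro k g₀ _
    have h1 : (⟨z, hzM⟩ : ↥M) * g₀ = g₀ * ⟨z, hzM⟩ := by
      apply Subtype.ext
      exact (hcen g₀ g₀.2).symm
    have h2 : Commute ((⟨z, hzM⟩ : ↥M) ^ k) g₀ := (Commute.pow_left h1 k)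
    rw [mul_assoc, h2.eq, inv_mul_cancel_left]
  open scoped IsMulCommutative in
  have h1 := MonoidHom.transfer_eq_pow (MonoidHom.id ↥(R.subgroupOf M)) (⟨z, hzM⟩ : ↥M) key
  open scoped IsMulCommutative in
  have h2 : MonoidHom.transfer (MonoidHom.id ↥(R.subgroupOf M)) (⟨z, hzM⟩ : ↥M) = 1 := by
    have := Abelianization.commutator_subset_ker
      (MonoidHom.transfer (MonoidHom.id ↥(R.subgroupOf M))) hz'
    exact MonoidHom.mem_ker.mp this
  rw [h2] at h1
  have h3 : (⟨z, hzM⟩ : ↥M) ^ (R.subgroupOf M).index = 1 := by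
    have := congrArg Subtype.val h1
    simpa using this.symm
  have h4 : z ^ (R.subgroupOf M).index = 1 := by
    have := congrArg Subtype.val h3
    simpa using this
  have h5 := orderOf_dvd_of_pow_eq_one h4
  rw [hz] at h5
  exact hRidx h5

theorem lemB : Cfsg.Agent.Lib.Helper52.BG80.LemB.{u} := by
  intro G _ _ M H E X r hr hE hMH hHr hXE hEX hXc hab hcyc hder y hyX k hyk hy1
  have hcardM := Cfsg.Agent.Lib.Helper23.card_of_isComplIn hE
  obtain ⟨hEM, hHM, hEH, hprod⟩ := hE
  have : Fact r.Prime := ⟨hr⟩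
  obtain ⟨y1, hy1def⟩ : ∃ y1, y1 = y ^ r ^ k := ⟨_, rfl⟩
  rw [← hy1def] at hy1
  have hyE : y ∈ E := hXE hyX
  have hyM : y ∈ M := hEM hyE
  have hy1M : y1 ∈ M := by rw [hy1def]; exact M.pow_mem hyM _
  have hoy1 : orderOf y1 = r := by
    rw [hy1def, orderOf_pow, hyk, Nat.gcd_eq_right (pow_dvd_pow r (Nat.le_succ k)), pow_succ,
      Nat.mul_div_cancel_left _ (pow_pos hr.pos k)]
  -- conjugation by `E` maps `y` to a power of `y`
  have hconj : ∀ e ∈ E, ∃ j : ℤ, e * y * e⁻¹ = y ^ j := by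
    intro e he
    have h1 : e * y * e⁻¹ ∈ X := by
      have := hEX he
      rw [Subgroup.mem_set_normalizer_iff] at this
      exact (this y).mp hyX
    have h2 : orderOf (e * y * e⁻¹) = orderOf y := by
      have := MulEquiv.orderOf_eq (MulAut.conj e) y
      simpa [MulAut.conj_apply] using this
    have h3 := mem_zpowers_of_orderOf_eq80 (K := ↥X) ⟨e * y * e⁻¹, h1⟩ ⟨y, hyX⟩
      (by rw [Subgroup.orderOf_mk, Subgroup.orderOf_mk]; exact h2)
    obtain ⟨j, hj⟩ := h3
    refine ⟨j, ?_⟩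
    have := congrArg Subtype.val hj
    simpa using this.symm
  have hconj1 : ∀ e : G, ∀ j : ℤ, e * y * e⁻¹ = y ^ j → e * y1 * e⁻¹ = y1 ^ j := by
    intro e j hj
    rw [hy1def, ← conj_pow, hj, ← zpow_natCast, ← zpow_mul, mul_comm, zpow_mul, zpow_natCast]
  have hcH : ∀ b ∈ H, b * y1 = y1 * b := fun b hb => hy1 b hb
  -- `zpowers y1` is normal in `M`, hence lies in `M'`
  have hy1M' : y1 ∈ ⁅M, M⁆ := by
    have hC : Subgroup.zpowers y1 ≤ ⁅M, M⁆ := by
      apply hcyc
      · exact (Subgroup.zpowers_le).mpr hy1M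
      · apply le_set_normalizer_of_conj_mem80
        have key : ∀ m ∈ M, m * y1 * m⁻¹ ∈ Subgroup.zpowers y1 := by
          intro m hm
          obtain ⟨a, ha, b, hb, rfl⟩ := hprod m hm
          have hb1 : b * y1 * b⁻¹ = y1 := by
            rw [hcH b hb, mul_inv_cancel_right]
          obtain ⟨j, hj⟩ := hconj a ha
          have h3 := hconj1 a j hj
          rw [show a * b * y1 * (a * b)⁻¹ = a * (b * y1 * b⁻¹) * a⁻¹ by group, hb1, h3]
          exact Subgroup.zpow_mem _ (Subgroup.mem_zpowers y1) j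
        intro m hm c hc
        obtain ⟨n, rfl⟩ := hc
        rw [← conj_zpow]
        exact Subgroup.zpow_mem _ (key m hm) n
      · infer_instance
    exact hC (Subgroup.mem_zpowers y1)
  -- some `u ∈ E` does not centralize `y1`
  have hex : ∃ u ∈ E, u * y1 * u⁻¹ ≠ y1 := by
    by_contra hcon
    have hcon' : ∀ u ∈ E, u * y1 * u⁻¹ = y1 := by
      intro u hu
      by_contra h
      exact hcon ⟨u, hu, h⟩
    have hcenM : ∀ m ∈ M, m * y1 = y1 * m := by
      intro m hm
      obtain ⟨a, ha, b, hb, rfl⟩ := hprod m hm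
      have h1 := hcon' a ha
      have h2 := hcH b hb
      have h1' : a * y1 = y1 * a := by
        nth_rewrite 2 [← h1]
        group
      rw [mul_assoc, h2, ← mul_assoc, h1', mul_assoc]
    obtain ⟨P⟩ : Nonempty (Sylow r ↥E) := inferInstance
    obtain ⟨R, hRdef⟩ : ∃ R : Subgroup G, R = (P : Subgroup ↥E).map E.subtype := ⟨_, rfl⟩
    have hRE : R ≤ E := by rw [hRdef]; exact Subgroup.map_subtype_le _
    have hRp : IsPGroup r R := by rw [hRdef]; exact P.isPGroup'.map E.subtype
    have hRidx : ¬ r ∣ R.relIndex E := by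
      have h1 : R.subgroupOf E = (P : Subgroup ↥E) := by
        rw [hRdef]
        exact Subgroup.comap_map_eq_self_of_injective (Subgroup.subtype_injective E) _
      rw [Subgroup.relIndex, h1]
      exact P.not_dvd_index
    have hEidx : E.relIndex M = Nat.card ↥H := by
      have h1 := Subgroup.card_mul_index (E.subgroupOf M)
      have h2 : Nat.card ↥(E.subgroupOf M) = Nat.card ↥E :=
        Nat.card_congr (Subgroup.subgroupOfEquivOfLe hEM).toEquiv
      rw [h2, hcardM] at h1
      exact Nat.eq_of_mul_eq_mul_left Nat.card_pos h1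
    have hRidxM : ¬ r ∣ R.relIndex M := by
      rw [← Subgroup.relIndex_mul_relIndex R E M hRE hEM, hEidx]
      intro hdvd
      rcases (Nat.Prime.dvd_mul hr).mp hdvd with h | h
      · exact hRidx h
      · exact (Nat.Prime.coprime_iff_not_dvd hr).mp hHr.symm h
    exact not_mem_commutator_of_central80 M R r (hab R hRE hRp) hRidxM y1 hy1M
      hoy1 hcenM hy1M'
  obtain ⟨u, hu, hune⟩ := hex
  obtain ⟨j, hj⟩ := hconj u hu
  have hj1 := hconj1 u j hj
  rw [hj1] at hune
  -- `r ∤ j - 1`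
  have hndvd : ¬ (r : ℤ) ∣ j - 1 := by
    intro hdvd
    apply hune
    have : y1 ^ (j - 1) = 1 := by
      rw [← hoy1] at hdvd
      exact orderOf_dvd_iff_zpow_eq_one.mp hdvd
    calc y1 ^ j = y1 ^ (j - 1) * y1 := by rw [← zpow_add_one]; congr 1; ring
      _ = y1 := by rw [this, one_mul]
  -- the commutator `c = u y u⁻¹ y⁻¹ = y ^ (j-1)` is an `r`-element of `M'`
  have hcM' : y ^ (j - 1) ∈ ⁅M, M⁆ := by
    have h1 : ⁅u, y⁆ ∈ ⁅M, M⁆ := Subgroup.commutator_mem_commutator (hEM hu) hyM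
    have h2 : ⁅u, y⁆ = y ^ (j - 1) := by
      rw [commutatorElement_def, hj, zpow_sub_one]
    rw [← h2]; exact h1
  have hcC : y ^ (j - 1) ∈ Subgroup.centralizer (H : Set G) := by
    apply hder _ hcM'
    refine ⟨k + 1, ?_⟩
    rw [← zpow_natCast, ← zpow_mul, mul_comm, zpow_mul, zpow_natCast, ← hyk, pow_orderOf_eq_one,
      one_zpow]
  -- `y` is a power of `c`
  have hcop : IsCoprime (j - 1) ((r : ℤ) ^ (k + 1)) := by
    apply IsCoprime.pow_right
    rw [isCoprime_comm]
    exact (Nat.prime_iff_prime_int.mp hr).coprime_iff_not_dvd.mpr hndvd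
  obtain ⟨a, b, hab1⟩ := hcop
  have hy : y = (y ^ (j - 1)) ^ a := by
    have h1 : y ^ ((r : ℤ) ^ (k + 1)) = 1 := by
      have : ((r : ℤ) ^ (k + 1)) = ((r ^ (k + 1) : ℕ) : ℤ) := by push_cast; ring
      rw [this, zpow_natCast, ← hyk, pow_orderOf_eq_one]
    calc y = y ^ (a * (j - 1) + b * (r : ℤ) ^ (k + 1)) := by rw [hab1, zpow_one]
      _ = (y ^ (j - 1)) ^ a := by
        rw [zpow_add, mul_comm b, zpow_mul _ ((r : ℤ) ^ (k + 1)), h1, one_zpow, mul_one, mul_comm,
          zpow_mul]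
  rw [hy]
  exact Subgroup.zpow_mem _ hcC a

end Cfsg.Agent.Lib.Helper20.BG
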