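import Mathlib
import Cfsg.Prelude.Def_OddOrderLocal
import Cfsg.Agent.S1452
import Cfsg.Agent.Lib.Helper23.PGroupEA

/-!
Bender–Glauberman Theorem 9.6 (the Uniqueness Theorem), derived from Corollaries 9.2, 9.3 and
Theorem 9.5 taken as hypotheses.
-/

set_option autoImplicit false

namespace Cfsg.Agent.Lib.Helper20.BG

open Cfsg

/-- A subgroup containing a uniqueness subgroup is a uniqueness subgroup, if proper. -/
theorem inUniqueMaximal_of_le {G : Type*} [Group G] [Finite G] {D K : Subgroup G}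
    (hD : InUniqueMaximal D) (hDK : D ≤ K) (hK : K ≠ ⊤) : InUniqueMaximal K := by
  obtain ⟨M, ⟨hM, hDM⟩, huniq⟩ := hD
  obtain ⟨M', hM', hKM'⟩ := (eq_top_or_exists_le_coatom K).resolve_left hK
  have hM'M : M' = M := huniq M' ⟨hM', hDK.trans hKM'⟩
  refine ⟨M', ⟨hM', hKM'⟩, ?_⟩
  rintro M'' ⟨hM'', hKM''⟩
  rw [hM'M]
  exact huniq M'' ⟨hM'', hDK.trans hKM''⟩

/-- An elementary abelian `p`-subgroup of order greater than `p ^ 2` is a uniqueness subgroup. -/
theorem ea_cube_unique {G : Type*} [Group G] [Finite G] (hG : Cfsg.IsMinSimpleOddOrder G)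
    (h1400 : ∀ (p : ℕ) [Fact p.Prime] (A B : Subgroup G), IsPGroup p A → IsMulCommutative A →
      ¬ Cfsg.PRankLE p 2 ↥A → Cfsg.InUniqueMaximal A → IsPGroup p B → ¬ IsCyclic B →
      ¬ Cfsg.PRankLE p 2 ↥(Subgroup.centralizer (B : Set G)) → Cfsg.InUniqueMaximal B)
    (h1402 : ∀ (p : ℕ) [Fact p.Prime] (P : Sylow p G) (A : Subgroup G),
      Cfsg.IsSCN (P : Subgroup G) A → ¬ Cfsg.PRankLE p 2 ↥A → Cfsg.InUniqueMaximal A)
    (p : ℕ) [hp : Fact p.Prime] (D : Subgroup G) (hD : Cfsg.IsElementaryAbelian p D)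
    (hcard : p ^ 2 < Nat.card D) : Cfsg.InUniqueMaximal D := by
  classical
  have hpp : p.Prime := hp.out
  have hDp : IsPGroup p D := by
    intro ⟨d, hd⟩
    refine ⟨1, ?_⟩
    apply Subtype.ext
    rw [pow_one]
    exact hD.2 d hd
  have hcomm : ∀ a ∈ D, ∀ b ∈ D, a * b = b * a := by
    intro a ha b hb
    have := (isMulCommutative_iff.mp hD.1) ⟨a, ha⟩ ⟨b, hb⟩
    exact congrArg Subtype.val this
  -- `p` is odd
  have hp2 : p ≠ 2 := by
    intro h2
    have hdvd : p ∣ Nat.card D := by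
      obtain ⟨n, hn⟩ := IsPGroup.iff_card.mp hDp
      rw [hn] at hcard ⊢
      have : n ≠ 0 := by
        intro h0
        rw [h0, pow_zero] at hcard
        have := Nat.one_le_pow 2 p hpp.pos
        omega
      exact dvd_pow_self p this
    have hdvd' : p ∣ Nat.card G := hdvd.trans (Subgroup.card_subgroup_dvd_card D)
    rw [h2] at hdvd'
    exact (Nat.not_even_iff_odd.mpr hG.1) (even_iff_two_dvd.mpr hdvd')
  obtain ⟨P, hDP⟩ := hDp.exists_le_sylow
  have hPp : IsPGroup p ↥(P : Subgroup G) := P.isPGroup'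
  have hrk : ¬ Cfsg.PRankLE p 2 ↥(P : Subgroup G) :=
    Cfsg.Agent.Lib.Helper23.not_pRankLE_of_le p hD hDP hcard
  obtain ⟨U, hUn, hUe, hU2, -⟩ := Cfsg.Agent.Lib.Helper23.exists_normal_EA_sq p hPp hrk
  obtain ⟨A', -, hA'n, hA'c, hA'r⟩ := Cfsg.Agent.S1452.result p hp2 hPp hrk U hUe hU2
  obtain ⟨A, hA⟩ : ∃ A : Subgroup G, A = A'.map (P : Subgroup G).subtype := ⟨_, rfl⟩
  have hAP : A ≤ (P : Subgroup G) := by rw [hA]; exact Subgroup.map_subtype_le A'
  have hmemA : ∀ (x : G) (hx : x ∈ (P : Subgroup G)), x ∈ A ↔ (⟨x, hx⟩ : ↥(P : Subgroup G)) ∈ A' := by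
    intro x hx
    rw [hA]
    constructor
    · rintro ⟨y, hy, hyx⟩
      have : y = ⟨x, hx⟩ := Subtype.ext hyx
      rw [← this]; exact hy
    · intro h
      exact ⟨⟨x, hx⟩, h, rfl⟩
  have hAcomm : ∀ a ∈ A, ∀ b ∈ A, a * b = b * a := by
    intro a ha b hb
    have ha' := (hmemA a (hAP ha)).mp ha
    have hb' := (hmemA b (hAP hb)).mp hb
    have hb'' : (⟨b, hAP hb⟩ : ↥(P : Subgroup G)) ∈ Subgroup.centralizer (A' : Set ↥(P : Subgroup G)) := by
      rw [hA'c]; exact hb'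
    have := hb'' ⟨a, hAP ha⟩ ha'
    exact congrArg Subtype.val this
  have hSCN : Cfsg.IsSCN (P : Subgroup G) A := by
    refine ⟨hAP, ?_, ?_⟩
    · intro g hg
      rw [Subgroup.mem_normalizer_iff]
      intro x
      constructor
      · intro hx
        have hxP := hAP hx
        have hcP : g * x * g⁻¹ ∈ (P : Subgroup G) :=
          Subgroup.mul_mem _ (Subgroup.mul_mem _ hg hxP) (Subgroup.inv_mem _ hg)
        rw [hmemA _ hcP]
        have := hA'n.conj_mem ⟨x, hxP⟩ ((hmemA x hxP).mp hx) ⟨g, hg⟩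
        exact this
      · intro hx
        have hcP := hAP hx
        have hxP : x ∈ (P : Subgroup G) := by
          have := Subgroup.mul_mem _ (Subgroup.mul_mem _ (Subgroup.inv_mem _ hg) hcP) hg
          have e : g⁻¹ * (g * x * g⁻¹) * g = x := by group
          rwa [e] at this
        rw [hmemA _ hxP]
        have := hA'n.conj_mem ⟨g * x * g⁻¹, hcP⟩ ((hmemA _ hcP).mp hx) ⟨g, hg⟩⁻¹
        have e : (⟨g, hg⟩ : ↥(P : Subgroup G))⁻¹ * ⟨g * x * g⁻¹, hcP⟩ * (⟨g, hg⟩ : ↥(P : Subgroup G))⁻¹⁻¹ =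
            ⟨x, hxP⟩ := by
          apply Subtype.ext
          simp only [Subgroup.coe_mul, Subgroup.coe_inv]
          group
        rwa [e] at this
    · apply le_antisymm
      · rintro x ⟨hxP, hxC⟩
        rw [hmemA x hxP, ← hA'c]
        intro y hy
        apply Subtype.ext
        have hyA : (y : G) ∈ A := (hmemA _ y.2).mpr hy
        exact hxC (y : G) hyA
      · intro x hx
        refine ⟨hAP hx, ?_⟩
        intro y hy
        exact hAcomm y hy x hx
  have hAr : ¬ Cfsg.PRankLE p 2 ↥A := by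
    intro h
    apply hA'r
    intro B hBc hBe
    have e : ↥A' ≃* ↥A := by
      rw [hA]
      exact (A'.equivMapOfInjective _ (P : Subgroup G).subtype_injective)
    have h1 := h (B.map e.toMonoidHom) ?_ ?_
    · rwa [Subgroup.card_map_of_injective e.injective] at h1
    · rw [isMulCommutative_iff]
      rintro ⟨_, ⟨a, ha, rfl⟩⟩ ⟨_, ⟨b, hb, rfl⟩⟩
      apply Subtype.ext
      have hab : (⟨a, ha⟩ : B) * ⟨b, hb⟩ = ⟨b, hb⟩ * ⟨a, ha⟩ := (isMulCommutative_iff.mp hBc) _ _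
      have hab' : a * b = b * a := congrArg Subtype.val hab
      show e.toMonoidHom a * e.toMonoidHom b = e.toMonoidHom b * e.toMonoidHom a
      rw [← map_mul, ← map_mul, hab']
    · rintro _ ⟨a, ha, rfl⟩
      rw [← map_pow, hBe a ha, map_one]
  have hAp : IsPGroup p A := hPp.to_le hAP
  have hAmc : IsMulCommutative A := by
    rw [isMulCommutative_iff]
    rintro ⟨a, ha⟩ ⟨b, hb⟩
    exact Subtype.ext (hAcomm a ha b hb)
  have hAU := h1402 p P A hSCN hAr
  have hDnc : ¬ IsCyclic D := by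
    intro hc
    have hexp : Monoid.exponent D ∣ p := by
      apply Monoid.exponent_dvd_of_forall_pow_eq_one
      rintro ⟨d, hd⟩
      apply Subtype.ext
      exact hD.2 d hd
    have hle : Nat.card D ≤ p := by
      rw [← IsCyclic.exponent_eq_card]
      exact Nat.le_of_dvd hpp.pos hexp
    have : p ≤ p ^ 2 := Nat.le_self_pow (by norm_num) p
    omega
  have hDC : D ≤ Subgroup.centralizer (D : Set G) := by
    intro x hx y hy
    exact hcomm y hy x hx
  have hCr : ¬ Cfsg.PRankLE p 2 ↥(Subgroup.centralizer (D : Set G)) :=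
    Cfsg.Agent.Lib.Helper23.not_pRankLE_of_le p hD hDC hcard
  exact h1400 p A D hAp hAmc hAr hAU hDp hDnc hCr

/-- BG Theorem 9.6 from 9.2, 9.3 and 9.5. -/
theorem s1403_core {G : Type*} [Group G] [Finite G] (hG : Cfsg.IsMinSimpleOddOrder G)
    (h1399 : ∀ (L K : Subgroup G), Cfsg.InUniqueMaximal L →
      K ≤ Subgroup.centralizer (L : Set G) → ¬ Cfsg.RankLE 1 K → Cfsg.InUniqueMaximal K)
    (h1400 : ∀ (p : ℕ) [Fact p.Prime] (A B : Subgroup G), IsPGroup p A → IsMulCommutative A →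
      ¬ Cfsg.PRankLE p 2 ↥A → Cfsg.InUniqueMaximal A → IsPGroup p B → ¬ IsCyclic B →
      ¬ Cfsg.PRankLE p 2 ↥(Subgroup.centralizer (B : Set G)) → Cfsg.InUniqueMaximal B)
    (h1402 : ∀ (p : ℕ) [Fact p.Prime] (P : Sylow p G) (A : Subgroup G),
      Cfsg.IsSCN (P : Subgroup G) A → ¬ Cfsg.PRankLE p 2 ↥A → Cfsg.InUniqueMaximal A)
    (K : Subgroup G) (hK : K ≠ ⊤) (hK2 : ¬ Cfsg.RankLE 1 K)
    (hK3 : ¬ Cfsg.RankLE 2 K ∨ ¬ Cfsg.RankLE 2 (Subgroup.centralizer (K : Set G))) :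
    Cfsg.InUniqueMaximal K := by
  rcases hK3 with h | h
  · unfold Cfsg.RankLE at h
    rw [not_forall] at h
    obtain ⟨p, hp⟩ := h
    rw [Classical.not_imp] at hp
    obtain ⟨hpp, hr⟩ := hp
    haveI : Fact p.Prime := ⟨hpp⟩
    obtain ⟨D, hDe, hDK, hDcard⟩ := Cfsg.Agent.Lib.Helper23.exists_EA_of_not_pRankLE p hr
    exact inUniqueMaximal_of_le (ea_cube_unique hG h1400 h1402 p D hDe hDcard) hDK hK
  · unfold Cfsg.RankLE at h
    rw [not_forall] at h
    obtain ⟨p, hp⟩ := h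
    rw [Classical.not_imp] at hp
    obtain ⟨hpp, hr⟩ := hp
    haveI : Fact p.Prime := ⟨hpp⟩
    obtain ⟨D, hDe, hDK, hDcard⟩ := Cfsg.Agent.Lib.Helper23.exists_EA_of_not_pRankLE p hr
    have hDU := ea_cube_unique hG h1400 h1402 p D hDe hDcard
    apply h1399 D K hDU _ hK2
    intro k hk d hd
    exact (hDK hd k hk).symm

end Cfsg.Agent.Lib.Helper20.BG
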